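import Cfsg.Agent.Helper28.Y5D3.Rows0
import Cfsg.Agent.Helper28.Y5D3.Fin0
import Cfsg.Agent.Helper28.Y5D3.Rel0

set_option autoImplicit false

namespace Cfsg.Agent.Helper28.Y5D3

theorem rows_all : ∀ x, x < 838 → Cfsg.Agent.Helper28.rowChk D x = true :=
  Cfsg.Agent.Helper28.pts_of_chunks _ 838 512 2 (by decide) (by decide)
    (Cfsg.Agent.Helper28.allLt_succ _ 1 (Cfsg.Agent.Helper28.allLt_succ _ 0 (Cfsg.Agent.Helper28.allLt_zero _) rows_0) rows_1)

theorem fin_all : ∀ i, i < 243 → Cfsg.Agent.Helper28.finPt D 243 lv T ftp ftc i = true :=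
  Cfsg.Agent.Helper28.pts_of_chunks _ 243 1024 1 (by decide) (by decide)
    (Cfsg.Agent.Helper28.allLt_succ _ 0 (Cfsg.Agent.Helper28.allLt_zero _) fin_0)

theorem rel_all : ∀ i, i < 243 → Cfsg.Agent.Helper28.relPt T relL i = true :=
  Cfsg.Agent.Helper28.pts_of_chunks _ 243 256 1 (by decide) (by decide)
    (Cfsg.Agent.Helper28.allLt_succ _ 0 (Cfsg.Agent.Helper28.allLt_zero _) rel_0)

set_option maxRecDepth 100000 in
theorem wE_0 : Cfsg.Agent.Helper28.WordOf gen ((Cfsg.Agent.Helper28.Y5.D3.a * Cfsg.Agent.Helper28.Y5.D3.b1 * Cfsg.Agent.Helper28.Y5.D3.c1 * Cfsg.Agent.Helper28.Y5.D3.a * Cfsg.Agent.Helper28.Y5.D3.b2 * Cfsg.Agent.Helper28.Y5.D3.c2 * Cfsg.Agent.Helper28.Y5.D3.a * Cfsg.Agent.Helper28.Y5.D3.b3 * Cfsg.Agent.Helper28.Y5.D3.c3) ^ 10) [0, 1, 2, 0, 3, 4, 0, 5, 6, 0, 1, 2, 0, 3, 4, 0, 5, 6, 0, 1, 2, 0, 3, 4, 0, 5, 6, 0, 1, 2, 0, 3, 4, 0, 5, 6, 0, 1, 2, 0, 3, 4, 0, 5, 6, 0, 1, 2, 0, 3, 4, 0, 5, 6, 0, 1, 2, 0, 3, 4,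 0, 5, 6, 0, 1, 2, 0, 3, 4, 0, 5, 6, 0, 1, 2, 0, 3, 4, 0, 5, 6, 0, 1, 2, 0, 3, 4, 0, 5, 6] := by
  intro K _ v hv
  simp only [map_mul, map_pow, map_inv, FreeGroup.lift_apply_of, mul_inv_rev, inv_pow,
    Cfsg.Agent.Helper28.inv_of_sq _ (hv _), List.map_cons, List.map_nil, List.prod_cons, List.prod_nil, gen,
    pow_succ, pow_zero, one_mul, mul_one, mul_assoc]

set_option maxRecDepth 100000 in
theorem wS_0 : Cfsg.Agent.Helper28.WordOf gen (Cfsg.Agent.Helper28.Y5.D3.a) [0] := by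
  intro K _ v hv
  simp only [map_mul, map_pow, map_inv, FreeGroup.lift_apply_of, mul_inv_rev, inv_pow,
    Cfsg.Agent.Helper28.inv_of_sq _ (hv _), List.map_cons, List.map_nil, List.prod_cons, List.prod_nil, gen,
    pow_succ, pow_zero, one_mul, mul_one, mul_assoc]

set_option maxRecDepth 100000 in
theorem wS_1 : Cfsg.Agent.Helper28.WordOf gen (Cfsg.Agent.Helper28.Y5.D3.b1) [1] := by
  intro K _ v hv
  simp only [map_mul, map_pow, map_inv, FreeGroup.lift_apply_of, mul_inv_rev, inv_pow,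
    Cfsg.Agent.Helper28.inv_of_sq _ (hv _), List.map_cons, List.map_nil, List.prod_cons, List.prod_nil, gen,
    pow_succ, pow_zero, one_mul, mul_one, mul_assoc]

set_option maxRecDepth 100000 in
theorem wS_2 : Cfsg.Agent.Helper28.WordOf gen (Cfsg.Agent.Helper28.Y5.D3.c1) [2] := by
  intro K _ v hv
  simp only [map_mul, map_pow, map_inv, FreeGroup.lift_apply_of, mul_inv_rev, inv_pow,
    Cfsg.Agent.Helper28.inv_of_sq _ (hv _), List.map_cons, List.map_nil, List.prod_cons, List.prod_nil, gen,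
    pow_succ, pow_zero, one_mul, mul_one, mul_assoc]

set_option maxRecDepth 100000 in
theorem wS_3 : Cfsg.Agent.Helper28.WordOf gen (Cfsg.Agent.Helper28.Y5.D3.b2) [3] := by
  intro K _ v hv
  simp only [map_mul, map_pow, map_inv, FreeGroup.lift_apply_of, mul_inv_rev, inv_pow,
    Cfsg.Agent.Helper28.inv_of_sq _ (hv _), List.map_cons, List.map_nil, List.prod_cons, List.prod_nil, gen,
    pow_succ, pow_zero, one_mul, mul_one, mul_assoc]

set_option maxRecDepth 100000 in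
theorem wS_4 : Cfsg.Agent.Helper28.WordOf gen (Cfsg.Agent.Helper28.Y5.D3.c2) [4] := by
  intro K _ v hv
  simp only [map_mul, map_pow, map_inv, FreeGroup.lift_apply_of, mul_inv_rev, inv_pow,
    Cfsg.Agent.Helper28.inv_of_sq _ (hv _), List.map_cons, List.map_nil, List.prod_cons, List.prod_nil, gen,
    pow_succ, pow_zero, one_mul, mul_one, mul_assoc]

set_option maxRecDepth 100000 in
theorem wS_5 : Cfsg.Agent.Helper28.WordOf gen (Cfsg.Agent.Helper28.Y5.D3.b3) [5] := by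
  intro K _ v hv
  simp only [map_mul, map_pow, map_inv, FreeGroup.lift_apply_of, mul_inv_rev, inv_pow,
    Cfsg.Agent.Helper28.inv_of_sq _ (hv _), List.map_cons, List.map_nil, List.prod_cons, List.prod_nil, gen,
    pow_succ, pow_zero, one_mul, mul_one, mul_assoc]

theorem wE_all : List.Forall₂ (Cfsg.Agent.Helper28.WordOf gen) Cfsg.Agent.Helper28.Y5.D3.extra extraL := by
  unfold Cfsg.Agent.Helper28.Y5.D3.extra extraL
  exact List.Forall₂.cons wE_0 (List.Forall₂.nil)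

theorem wSub_l : ∀ l ∈ subL, ∃ s ∈ ({Cfsg.Agent.Helper28.Y5.D3.a, Cfsg.Agent.Helper28.Y5.D3.b1, Cfsg.Agent.Helper28.Y5.D3.c1, Cfsg.Agent.Helper28.Y5.D3.b2, Cfsg.Agent.Helper28.Y5.D3.c2, Cfsg.Agent.Helper28.Y5.D3.b3} : Set (FreeGroup Cfsg.Agent.Helper28.Y5.D3.Gen)), Cfsg.Agent.Helper28.WordOf gen s l := by
  intro l hl
  simp only [subL, List.mem_cons, List.mem_nil_iff, or_false] at hl
  rcases hl with rfl | rfl | rfl | rfl | rfl | rfl
  · exact ⟨_, by simp only [Set.mem_insert_iff, Set.mem_singleton_iff, true_or, or_true], wS_0⟩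
  · exact ⟨_, by simp only [Set.mem_insert_iff, Set.mem_singleton_iff, true_or, or_true], wS_1⟩
  · exact ⟨_, by simp only [Set.mem_insert_iff, Set.mem_singleton_iff, true_or, or_true], wS_2⟩
  · exact ⟨_, by simp only [Set.mem_insert_iff, Set.mem_singleton_iff, true_or, or_true], wS_3⟩
  · exact ⟨_, by simp only [Set.mem_insert_iff, Set.mem_singleton_iff, true_or, or_true], wS_4⟩
  · exact ⟨_, by simp only [Set.mem_insert_iff, Set.mem_singleton_iff, true_or, or_true], wS_5⟩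

theorem wSub_r : ∀ s ∈ ({Cfsg.Agent.Helper28.Y5.D3.a, Cfsg.Agent.Helper28.Y5.D3.b1, Cfsg.Agent.Helper28.Y5.D3.c1, Cfsg.Agent.Helper28.Y5.D3.b2, Cfsg.Agent.Helper28.Y5.D3.c2, Cfsg.Agent.Helper28.Y5.D3.b3} : Set (FreeGroup Cfsg.Agent.Helper28.Y5.D3.Gen)), ∃ l ∈ subL, Cfsg.Agent.Helper28.WordOf gen s l := by
  intro s hs
  simp only [Set.mem_insert_iff, Set.mem_singleton_iff] at hs
  rcases hs with rfl | rfl | rfl | rfl | rfl | rfl
  · exact ⟨_, by simp only [subL, List.mem_cons, List.mem_nil_iff, true_or, or_true], wS_0⟩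
  · exact ⟨_, by simp only [subL, List.mem_cons, List.mem_nil_iff, true_or, or_true], wS_1⟩
  · exact ⟨_, by simp only [subL, List.mem_cons, List.mem_nil_iff, true_or, or_true], wS_2⟩
  · exact ⟨_, by simp only [subL, List.mem_cons, List.mem_nil_iff, true_or, or_true], wS_3⟩
  · exact ⟨_, by simp only [subL, List.mem_cons, List.mem_nil_iff, true_or, or_true], wS_4⟩
  · exact ⟨_, by simp only [subL, List.mem_cons, List.mem_nil_iff, true_or, or_true], wS_5⟩

/-- The certificate. -/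
theorem cert : Cfsg.Agent.Helper28.CoxCert Cfsg.Agent.Helper28.Y5.D3.edges Cfsg.Agent.Helper28.Y5.D3.extra
    ({Cfsg.Agent.Helper28.Y5.D3.a, Cfsg.Agent.Helper28.Y5.D3.b1, Cfsg.Agent.Helper28.Y5.D3.c1, Cfsg.Agent.Helper28.Y5.D3.b2, Cfsg.Agent.Helper28.Y5.D3.c2, Cfsg.Agent.Helper28.Y5.D3.b3} : Set (FreeGroup Cfsg.Agent.Helper28.Y5.D3.Gen)) gen code D 243 lv T pairs extraL subL where
  hD := rfl
  hnrel := by decide +kernel
  hcode := by intro x; cases x <;> exact ⟨by decide +kernel, rfl⟩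
  hcode2 := by decide +kernel
  hnode := by intro x; cases x <;> decide +kernel
  hpairs1 := by decide +kernel
  hpairs2 := by decide +kernel
  hextra1 := Cfsg.Agent.Helper28.forall2_right wE_all
  hextra2 := Cfsg.Agent.Helper28.forall2_left wE_all
  hsub1 := wSub_l
  hsub2 := wSub_r
  hletE := by decide +kernel
  hletS := by decide +kernel
  hN := Cfsg.Agent.Helper28.pad_ok D (by decide +kernel)
  hchk := (Cfsg.Agent.Helper28.rows_ok D rows_all).1
  hchkJ := (Cfsg.Agent.Helper28.rows_ok D rows_all).2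
  hfin := Cfsg.Agent.Helper28.finSem_of D 243 lv T ftp ftc fin_all (by decide +kernel)
  hn := by decide
  hTrel := Cfsg.Agent.Helper28.rel_ok T relL 243 rel_all
  hTsub := by decide +kernel

end Cfsg.Agent.Helper28.Y5D3
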